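import Cfsg.Agent.Mult.Slices
import Cfsg.Agent.F42C.BaseD

set_option autoImplicit false
set_option Elab.async false
set_option maxRecDepth 100000
set_option linter.all false

namespace Cfsg.Agent.F42C
open Cfsg.Agent.CGT

open Cfsg.Agent.Mult

set_option Elab.async false
theorem h_b0 : kf2.Chk ix (fun x y => Cfsg.Lie.chevF4.x (ZMod 2) (nth (0, 0) Es 0).1 (kf2.nm (nth (0, 0) Es 0).2) x y) (nth [] Bs 0) := by decide +kernel
theorem h_b1 : kf2.Chk ix (fun x y => Cfsg.Lie.chevF4.x (ZMod 2) (nth (0, 0) Es 1).1 (kf2.nm (nth (0, 0) Es 1).2) x y) (nth [] Bs 1) := by decide +kernel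
theorem h_b2 : kf2.Chk ix (fun x y => Cfsg.Lie.chevF4.x (ZMod 2) (nth (0, 0) Es 2).1 (kf2.nm (nth (0, 0) Es 2).2) x y) (nth [] Bs 2) := by decide +kernel
theorem h_b3 : kf2.Chk ix (fun x y => Cfsg.Lie.chevF4.x (ZMod 2) (nth (0, 0) Es 3).1 (kf2.nm (nth (0, 0) Es 3).2) x y) (nth [] Bs 3) := by decide +kernel

end Cfsg.Agent.F42C
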