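import Cfsg.Agent.Mult.Slices
import Cfsg.Agent.F42C.BaseD

set_option autoImplicit false
set_option Elab.async false
set_option maxRecDepth 100000
set_option linter.all false

namespace Cfsg.Agent.F42C
open Cfsg.Agent.CGT

open Cfsg.Agent.Mult

set_option Elab.async false
theorem h_b4 : kf2.Chk ix (fun x y => Cfsg.Lie.chevF4.x (ZMod 2) (nth (0, 0) Es 4).1 (kf2.nm (nth (0, 0) Es 4).2) x y) (nth [] Bs 4) := by decide +kernel
theorem h_b5 : kf2.Chk ix (fun x y => Cfsg.Lie.chevF4.x (ZMod 2) (nth (0, 0) Es 5).1 (kf2.nm (nth (0, 0) Es 5).2) x y) (nth [] Bs 5) := by decide +kernel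
theorem h_b6 : kf2.Chk ix (fun x y => Cfsg.Lie.chevF4.x (ZMod 2) (nth (0, 0) Es 6).1 (kf2.nm (nth (0, 0) Es 6).2) x y) (nth [] Bs 6) := by decide +kernel
theorem h_b7 : kf2.Chk ix (fun x y => Cfsg.Lie.chevF4.x (ZMod 2) (nth (0, 0) Es 7).1 (kf2.nm (nth (0, 0) Es 7).2) x y) (nth [] Bs 7) := by decide +kernel

end Cfsg.Agent.F42C
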