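import Cfsg.Agent.Mult.Slices
import Cfsg.Agent.F42C.CertD

set_option autoImplicit false
set_option Elab.async false
set_option maxRecDepth 100000
set_option linter.all false

namespace Cfsg.Agent.F42C
open Cfsg.Agent.CGT

open Cfsg.Agent.Mult

set_option Elab.async false
theorem h_r0 : allL (takeL 15 (dropL 0 qRR)) (scalW 2 52 Rs Ts) = true := by decide +kernel
theorem h_r1 : allL (takeL 41 (dropL 15 qRR)) (scalW 2 52 Rs Ts) = true := by decide +kernel
theorem h_r2 : allL (takeL 9 (dropL 56 qRR)) (scalW 2 52 Rs Ts) = true := by decide +kernel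

end Cfsg.Agent.F42C
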