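import Cfsg.Agent.Mult.Slices
import Cfsg.Agent.F42C.Mul2D

set_option autoImplicit false
set_option Elab.async false
set_option maxRecDepth 100000
set_option linter.all false

namespace Cfsg.Agent.F42C
open Cfsg.Agent.CGT

open Cfsg.Agent.Mult

set_option Elab.async false
theorem u2_t3 : u2_D.vecsK (u2_D.M u2_c) u2_c.F [.fus 24 [4, 1] [1, 4, 11, 15, 17, 20], .fus 24 [1, 1] [11, 13, 16], .fus 24 [7, 0] [0, 7, 10], .fus 24 [7, 7] [18, 19, 20], .fus 24 [1, 0] [0, 1, 8, 10, 13, 15, 16, 20], .fus 24 [5, 0] [0, 5, 10, 13, 15, 16, 19, 20], .fus 24 [2, 0] [0, 2, 4], .fus 24 [2, 2] [4, 11, 13, 16], .fus 24 [6, 5] [5, 6, 10, 15, 16, 17, 20], .fus 24 [5, 1] [1, 5, 8], .fus 24 [5, 5] [10, 13, 15, 16, 19, 20], .fus 25 [29, 29] [40, 41, 42], .fus 25 [40, 21] [21, 40, 42], .fus 25 [37, 22] [22, 37, 41, 42], .fus 25 [29, 28] [28, 29, 38, 42], .fus 25 [30, 29] [29, 30, 37, 38, 39, 42], .fus 25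 [27, 27] [35, 36, 37, 40], .fus 25 [28, 28] []] (fun l => beqL l u2_v3) = true := by decide +kernel
theorem u2_t4 : u2_D.vecsK (u2_D.M u2_c) u2_c.F [.fus 25 [30, 30] [39], .fus 25 [31, 24] [24, 31, 38, 39, 40], .fus 25 [29, 22] [22, 29, 33], .fus 25 [27, 25] [25, 27, 33, 35, 37, 39, 41], .fus 25 [22, 22] [33, 35, 38], .fus 25 [27, 24] [24, 27, 34, 35, 38, 40, 42], .fus 25 [27, 21] [21, 27, 34, 36, 39, 40, 41], .fus 25 [25, 23] [23, 25, 29, 35, 38, 40]] (fun l => beqL l u2_v4) = true := by decide +kernel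
theorem u2_t5 : u2_D.vecsK (u2_D.M u2_c) u2_c.F [.fus 25 [25, 24] [24, 25, 37, 38], .fus 25 [26, 26] [32, 35, 37, 38, 41, 42]] (fun l => beqL l u2_v5) = true := by decide +kernel
theorem u2_t6 : u2_D.vecsK (u2_D.M u2_c) u2_c.F [.fus 25 [26, 25] [25, 26, 32, 39, 41], .fus 25 [26, 23] [23, 26, 29, 35, 40, 41, 42]] (fun l => beqL l u2_v6) = true := by decide +kernel
theorem u2_t7 : u2_D.vecsK (u2_D.M u2_c) u2_c.F [.fus 26 [55, 43] [43, 55, 57], .fus 26 [50, 50] [], .fus 26 [51, 46] [46, 51, 54], .fus 26 [53, 44] [44, 53, 55, 56], .fus 26 [51, 44] [44, 51, 52, 56, 57], .fus 26 [45, 45] [51, 52, 53, 54, 57], .fus 26 [49, 43] [43, 49, 51], .fus 26 [47, 45] [45, 47, 53, 56, 57], .fus 26 [48, 48] [55, 56, 57], .fus 27 [59, 59] [62, 63, 64], .fus 27 [60, 60] [64], .fus 27 [61, 58] [58, 61, 62, 63]] (fun l => beqL l u2_v7) = true := by decide +kernel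
theorem u2_l : u2_D.linB u2_c (u2_v0 ++ (u2_v1 ++ (u2_v2 ++ (u2_v3 ++ (u2_v4 ++ (u2_v5 ++ (u2_v6 ++ (u2_v7)))))))) = true := by decide +kernel

end Cfsg.Agent.F42C
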