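import Cfsg.Agent.Mult.Slices
import Cfsg.Agent.F42C.Tabs

set_option autoImplicit false
set_option Elab.async false
set_option maxRecDepth 100000
set_option linter.all false

namespace Cfsg.Agent.F42C
open Cfsg.Agent.CGT

open Cfsg.Agent.Mult

noncomputable def u5_D : PC := ⟨5, 2, 3, 21,
  [[0, 8], [0, 0]],
  [0, 0],
  [(2, 1, 4), (2, 8, 0xb), (3, 8, 0x11)], 9, 0x1000100000001⟩
noncomputable def u5_ds : List (List ℕ) := [[18, 10, 14, 12, 14, 18, 12, 2, 6, 0, 6, 16, 8, 0, 12, 8, 0, 16, 18, 6, 10, 12, 0, 6, 8, 16, 0, 16, 14, 10, 12, 18, 14, 4, 6, 16, 8, 10, 6, 12, 4, 18, 8, 0, 6, 16, 0, 12, 14, 8, 0, 12, 16, 10, 6, 4], [16, 2, 8, 4, 6, 8, 10, 12, 0, 16, 8, 0, 6, 4, 12, 0, 16, 0, 8, 10, 6, 12, 8, 0, 8, 16, 6, 14, 10, 12, 18, 8, 12, 10, 18, 8, 12, 6, 16, 8, 10, 4, 6, 0, 6, 16, 0, 8, 10, 16,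 12, 10, 0, 16, 18, 8, 14], [16, 0, 6, 4, 12, 10, 8, 0, 6, 16, 0, 12, 0, 12, 8, 10, 12, 8, 16, 6, 4, 6, 14, 12, 2, 16, 8, 0, 16, 8, 0, 10, 12, 6, 0, 6, 8, 10, 0, 16, 0, 8, 6, 0, 6, 12, 10, 0, 8, 16, 0, 10, 12, 2, 14], [18, 10, 0, 12, 0, 6, 8, 16, 4, 0, 12, 6, 8, 0, 8, 16, 0, 14, 12, 10, 8, 16, 18, 2, 12, 16, 18, 12, 18, 8, 10, 12, 14, 12, 10, 8, 18, 12, 10, 14, 6]]
noncomputable def u5_c : Mult.Cert := ⟨22, 18, [[], []],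
  [],
  [[0xa, 0x32], [0, 0x10]]⟩

end Cfsg.Agent.F42C
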