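import Cfsg.Agent.Mult.Slices
import Cfsg.Agent.F42C.Mul5D

set_option autoImplicit false
set_option Elab.async false
set_option maxRecDepth 100000
set_option linter.all false

namespace Cfsg.Agent.F42C
open Cfsg.Agent.CGT

open Cfsg.Agent.Mult

set_option Elab.async false
theorem u5_all : allB u5_D u5_c [.fus 2 [1, 0] [0, 1], .fus 2 [0, 0, 0, 0, 0] [], .fus 3 [2, 2, 2, 2, 2] []] 17 m_ts u5_ds [67912, 32166, 69814, 1512, 13018, 31508, 672, 0] [(3182, [8]), (0, [9])] = true := by decide +kernel

end Cfsg.Agent.F42C
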