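import Cfsg.Agent.F42C.PresQL0_0
import Cfsg.Agent.F42C.PresQL0_1

set_option autoImplicit false
set_option Elab.async false
set_option maxRecDepth 100000
set_option linter.all false

namespace Cfsg.Agent.F42C
open Cfsg.Agent.CGT

theorem ql0_p : Holds (lp ql0_ns) ql0_R := ((holdsB_sound ql0_v ql0_p0).append ((holdsB_sound ql0_v ql0_p1).append ((holdsB_sound ql0_v ql0_p2).append ((holdsB_sound ql0_v ql0_p3).append ((holdsB_sound ql0_v ql0_p4).append ((holdsB_sound ql0_v ql0_p5).append ((holdsB_sound ql0_v ql0_p6).append ((holdsB_sound ql0_v ql0_p7).append ((holdsB_sound ql0_v ql0_p8).append ((holdsB_sound ql0_v ql0_p9).append ((holdsB_sound ql0_v ql0_p10).append ((holdsB_sound ql0_v ql0_p11).append ((holdsB_sound ql0_v ql0_p12).append ((holdsB_sound ql0_v ql0_p13).append (holdsB_sound ql0_v ql0_p14)))))))))))))))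
theorem ql0_fin {G : Type*} [Group G] {γ : ℕ → G} (hR : Holds (ext γ) ql0_R) {H : Subgroup G}
    (hS : ∀ u ∈ ql0_S0, ev (ext γ) u ∈ H) : ql0_E.Fin γ H 69888 [0, 2, 4, 6, 8, 10, 12, 14, 16, 18] :=
  have hy : ql0_E.Hyp γ H := Enum.hyp_of ql0_v hR ql0_p hS ql0_f
  (Enum.fin_of_done hy (Enum.run_to hy (Enum.run_to hy (Enum.run_to hy (Enum.run_to hy (Enum.run_to hy (Enum.run_to hy (Enum.run_to hy (Enum.run_to hy (Enum.run_to hy (Enum.run_to hy (Enum.run_to hy (Enum.run_to hy (Enum.run_to hy (Enum.run_to hy (Enum.run_to hy (Enum.run_to hy (Enum.run_to hy (Enum.run_to hy (Enum.run_to hy (Enum.inv_init 20) ql0_r0) ql0_r1) ql0_r2) ql0_r3) ql0_r4) ql0_r5) ql0_r6) ql0_r7) ql0_r8) ql0_r9) ql0_r10) ql0_r11) ql0_r12) ql0_r13) ql0_r14) ql0_r15) ql0_r16) ql0_r17) ql0_r18) ql0_r19)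

end Cfsg.Agent.F42C
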